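import Cfsg.Agent.S0205
import Cfsg.Agent.Lib.JankoOrder.Setup
import Cfsg.Agent.Lib.SmallGroups.Basic
import Cfsg.Agent.Lib.Hall.Existence
import Cfsg.Agent.Lib.PSolvable.FrattiniFacts

/-!
There is no simple group of order `189000` with an involution centraliser `2 × A₅`.
-/

set_option autoImplicit false
set_option maxRecDepth 10000
set_option synthInstance.maxSize 2000
set_option linter.unusedSectionVars false
set_option linter.style.haveILetI false

open Cfsg Subgroup

namespace CfsgLib.JankoOrder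

universe u

theorem modEq_one_eq_one : ∀ n ∈ Nat.divisors 3375,
    n ∈ ([3, 9, 27, 5, 25, 125] : List ℕ) → ∀ m ∈ Nat.divisors n, m % 7 = 1 → m = 1 := by
  decide +kernel

/-- In a group of odd order dividing `7 · 27 · 125` a Sylow `7`-subgroup is normal. -/
theorem sylow_seven_normal : ∀ (n : ℕ) (H : Type u) [Group H] [Finite H], Nat.card H = n →
    n ∣ 23625 → ∀ P : Sylow 7 H, (P : Subgroup H).Normal := by
  haveI : Fact (Nat.Prime 7) := ⟨by norm_num⟩
  intro n
  induction n using Nat.strong_induction_on with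
  | _ n ih =>
  intro H _ _ hn hdvd P
  have hodd : Odd (Nat.card H) := by
    rw [hn]; exact Odd.of_dvd_nat (by decide) hdvd
  haveI : Group.IsSolvable H := Cfsg.Agent.S0205.result hodd
  have hPp : Nat.card (P : Subgroup H) ∣ 7 := by
    obtain ⟨k, hk⟩ := P.2.exists_card_eq
    have h1 : Nat.card (P : Subgroup H) ∣ 23625 :=
      ((P : Subgroup H).card_subgroup_dvd_card.trans (dvd_of_eq hn)).trans hdvd
    rw [hk] at h1 ⊢
    rcases k with _ | _ | k
    · exact one_dvd _
    · norm_num
    · exact absurd ((pow_dvd_pow 7 (show 2 ≤ k + 2 by omega)).trans h1) (by norm_num)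
  by_cases hP1 : (P : Subgroup H) = ⊥
  · rw [hP1]; infer_instance
  have hP7 : Nat.card (P : Subgroup H) = 7 :=
    ((Nat.dvd_prime (by norm_num)).1 hPp).resolve_left fun h => hP1 (Subgroup.card_eq_one.1 h)
  haveI : Nontrivial H := (Finite.one_lt_card_iff_nontrivial).1 (by
    have := Nat.le_of_dvd Nat.card_pos (P : Subgroup H).card_subgroup_dvd_card
    omega)
  obtain ⟨q, hq, hM⟩ := CfsgLib.Hall.exists_pCore_ne_bot (G := H)
  set M := Cfsg.pCore q H with hMdef
  haveI : Fact q.Prime := ⟨hq⟩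
  haveI hMn : M.Normal := inferInstanceAs (Cfsg.pCore q H).Normal
  obtain ⟨k, hk⟩ := (CfsgLib.Cores.isPGroup_pCore q H).exists_card_eq
  have hM1 : Nat.card M ≠ 1 := fun h => hM (Subgroup.card_eq_one.1 h)
  by_cases hq7 : q = 7
  · subst hq7
    have hle : M ≤ (P : Subgroup H) := by
      obtain ⟨T, hT⟩ := (CfsgLib.Cores.isPGroup_pCore 7 H).exists_le_sylow
      obtain ⟨g, rfl⟩ := MulAction.exists_smul_eq H T P
      intro x hx
      rw [Sylow.coe_subgroup_smul]
      exact ⟨g⁻¹ * x * g⁻¹⁻¹, hT (hMn.conj_mem x hx g⁻¹),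
        by simp [mul_assoc]⟩
    have : M = (P : Subgroup H) := by
      refine Subgroup.eq_of_le_of_card_ge hle ?_
      rw [hP7]
      rcases k with _ | k
      · exact absurd hk hM1
      · rw [hk]; exact Nat.le_self_pow (by omega) 7
    exact this ▸ hMn
  have hMd : Nat.card M ∣ 23625 := (M.card_subgroup_dvd_card.trans (dvd_of_eq hn)).trans hdvd
  have hqk : q ∣ 23625 := by
    refine dvd_trans ?_ hMd
    rcases k with _ | k
    · exact absurd hk hM1
    · rw [hk]; exact dvd_pow_self q (by omega)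
  have hMlist : Nat.card M ∈ Nat.divisors 3375 ∧ Nat.card M ∈ ([3, 9, 27, 5, 25, 125] : List ℕ) := by
    have h : ∀ d ∈ Nat.divisors 23625, (∃ r ∈ ([3, 5] : List ℕ), r ∣ d) → d % 7 ≠ 0 →
        (d % 3 ≠ 0 ∨ d % 5 ≠ 0) → d ∈ Nat.divisors 3375 ∧ d ∈ ([3, 9, 27, 5, 25, 125] : List ℕ) := by
      decide +kernel
    have hq35 : q = 3 ∨ q = 5 := by
      have hmem : q ∈ Nat.divisors 23625 := Nat.mem_divisors.2 ⟨hqk, by norm_num⟩
      have : ∀ d ∈ Nat.divisors 23625, 2 ≤ d → (∀ r ∈ ([3, 5, 7] : List ℕ), r ∣ d → r = d) →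
          d = 3 ∨ d = 5 ∨ d = 7 := by decide +kernel
      rcases this q hmem hq.two_le fun r hr hrd => by
          rcases (Nat.dvd_prime hq).1 hrd with h | h
          · fin_cases hr <;> simp at h
          · exact h with h | h | h
      · exact Or.inl h
      · exact Or.inr h
      · exact absurd h hq7
    have hk0 : k ≠ 0 := fun h => hM1 (by rw [hk, h, pow_zero])
    refine h _ (Nat.mem_divisors.2 ⟨hMd, by norm_num⟩) ⟨q, by rcases hq35 with h | h <;> simp [h],
      hk ▸ dvd_pow_self q hk0⟩ ?_ ?_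
    · intro h7
      rw [hk] at h7
      exact hq7 ((Nat.prime_dvd_prime_iff_eq (by norm_num) hq).1
        ((by norm_num : Nat.Prime 7).dvd_of_dvd_pow (Nat.dvd_of_mod_eq_zero h7))).symm
    · rcases hq35 with rfl | rfl
      · right
        intro h5
        rw [hk] at h5
        exact absurd ((Nat.prime_dvd_prime_iff_eq (by norm_num) (by norm_num)).1
          ((by norm_num : Nat.Prime 5).dvd_of_dvd_pow (Nat.dvd_of_mod_eq_zero h5))) (by norm_num)
      · left
        intro h3
        rw [hk] at h3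
        exact absurd ((Nat.prime_dvd_prime_iff_eq (by norm_num) (by norm_num)).1
          ((by norm_num : Nat.Prime 3).dvd_of_dvd_pow (Nat.dvd_of_mod_eq_zero h3))) (by norm_num)
  -- the image of `P` in the quotient
  have hlt : Nat.card (H ⧸ M) < n := by
    rw [← hn, Subgroup.card_eq_card_quotient_mul_card_subgroup M]
    have h0 := Nat.card_pos (α := M)
    exact lt_mul_of_one_lt_right Nat.card_pos (by omega)
  let P' : Sylow 7 (H ⧸ M) := P.mapSurjective (QuotientGroup.mk'_surjective M)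
  have hP' : (P' : Subgroup (H ⧸ M)).Normal :=
    ih _ hlt (H ⧸ M) rfl ((hn ▸ M.card_quotient_dvd_card).trans hdvd) P'
  set J := (P : Subgroup H) ⊔ M with hJ
  have hJn : J.Normal := by
    have h := hP'.comap (QuotientGroup.mk' M)
    rwa [show (P' : Subgroup (H ⧸ M)) = (P : Subgroup H).map (QuotientGroup.mk' M) from rfl,
      Subgroup.comap_map_eq, QuotientGroup.ker_mk'] at h
  let PJ : Sylow 7 J := P.subtype le_sup_left
  have hcop : Nat.Coprime (Nat.card (P : Subgroup H)) (Nat.card M) := by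
    rw [hP7]
    refine ((by norm_num : Nat.Prime 7).coprime_iff_not_dvd).2 fun h => ?_
    rw [hk] at h
    exact hq7 ((Nat.prime_dvd_prime_iff_eq (by norm_num) hq).1
      ((by norm_num : Nat.Prime 7).dvd_of_dvd_pow h)).symm
  have hJc : Nat.card J = Nat.card M * 7 := by
    have h1 : Nat.card J = Nat.card M * (M.subgroupOf J).index := by
      rw [← Subgroup.card_mul_index (M.subgroupOf J),
        Nat.card_congr (Subgroup.subgroupOfEquivOfLe (le_sup_right : M ≤ J)).toEquiv]
    have h2 : (M.subgroupOf J).index = M.relIndex (P : Subgroup H) := by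
      show M.relIndex J = _
      rw [hJ, Subgroup.relIndex_sup_right]
    have h3 : M.relIndex (P : Subgroup H) = 7 := by
      have hi : (P : Subgroup H) ⊓ M = ⊥ := Subgroup.inf_eq_bot_of_coprime hcop
      rw [← Subgroup.inf_relIndex_right, inf_comm M, hi, Subgroup.relIndex_bot_left, hP7]
    rw [h1, h2, h3]
  have hnum : Nat.card (Sylow 7 J) = 1 := by
    refine modEq_one_eq_one _ hMlist.1 hMlist.2 _ (Nat.mem_divisors.2 ⟨?_, Nat.card_pos.ne'⟩)
      (card_sylow_modEq_one 7 J)
    have h1 := PJ.card_dvd_index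
    have h2 : (PJ : Subgroup J).index = Nat.card M := by
      have h3 := Subgroup.card_mul_index (PJ : Subgroup J)
      rw [hJc, show (PJ : Subgroup J) = (P : Subgroup H).subgroupOf J from rfl,
        Nat.card_congr (Subgroup.subgroupOfEquivOfLe (le_sup_left : (P : Subgroup H) ≤ J)).toEquiv,
        hP7] at h3
      rw [show (PJ : Subgroup J) = (P : Subgroup H).subgroupOf J from rfl]
      omega
    rwa [h2] at h1
  haveI : Subsingleton (Sylow 7 J) := (Nat.card_eq_one_iff_unique.1 hnum).1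
  refine ⟨fun x hx g => ?_⟩
  -- conjugation by `g` fixes the Sylow subgroup of the normal subgroup `J`
  let gP : Sylow 7 H := g • P
  have hgle : (gP : Subgroup H) ≤ J := by
    rintro _ ⟨y, hy, rfl⟩
    exact hJn.conj_mem y (le_sup_left (b := M) hy) g
  have heq : gP.subtype hgle = PJ := Subsingleton.elim _ _
  have hgx : (⟨g * x * g⁻¹, hgle ⟨x, hx, rfl⟩⟩ : J) ∈ (gP.subtype hgle : Sylow 7 J) :=
    (Subgroup.mem_subgroupOf (H := (gP : Subgroup H))).2 ⟨x, hx, rfl⟩
  rw [heq] at hgx
  exact hgx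

theorem five_dvd_numbers : ∀ c ∈ Nat.divisors 27000, ∀ e ∈ ([2, 3, 6] : List ℕ),
    27000 % (c * e) = 0 → (27000 / (c * e)) % 7 = 1 → c % 2 = 1 → c % 5 = 0 := by
  decide +kernel

theorem sq_eq_one_zmod_two : ∀ s : Multiplicative (ZMod 2), s * s = 1 := by decide

theorem five_key : ∀ p : K, p ^ 5 = 1 ∧ p ≠ 1 →
    ∀ q : K, q * q = 1 ∧ p * q = q * p → q = 1 ∨ q = kz := by
  decide +kernel

namespace Model

variable {G : Type u} [Group G] [Finite G] (d : Model G)
variable (h2 : IsTwoCentralInvolution d.t) [IsSimpleGroup G] (hN : Nat.card G = 189000)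
include h2 hN

theorem sq_eq_one_of_two_pow {x : G} {k : ℕ} (hx : x ^ 2 ^ k = 1) : x * x = 1 := by
  haveI : Fact (Nat.Prime 2) := ⟨Nat.prime_two⟩
  obtain ⟨S, hS⟩ := d.exists_sylow h2
  obtain ⟨j, -, hj⟩ := (Nat.dvd_prime_pow Nat.prime_two).1 (orderOf_dvd_of_pow_eq_one hx)
  have hz : IsPGroup 2 (Subgroup.zpowers x) :=
    IsPGroup.of_card (n := j) (by rw [Nat.card_zpowers, hj])
  obtain ⟨T, hT⟩ := hz.exists_le_sylow
  obtain ⟨g, hg⟩ := MulAction.exists_smul_eq G T S
  have hgx : g * x * g⁻¹ ∈ (S : Subgroup G) := by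
    rw [← hg, Sylow.coe_subgroup_smul]
    exact ⟨x, hT (Subgroup.mem_zpowers x), rfl⟩
  rw [hS] at hgx
  obtain ⟨p, hp, hpx⟩ := hgx
  have hpp : p * p = 1 := Prod.ext (sq_eq_one_zmod_two p.1) hp.2.2
  rw [show x = g⁻¹ * (g * x * g⁻¹) * g by group, ← hpx,
    show g⁻¹ * d.φ p * g * (g⁻¹ * d.φ p * g) = g⁻¹ * (d.φ p * d.φ p) * g by group,
    ← map_mul, hpp, map_one]
  group

/-- Two commuting involutions centralising an element of order `5` are equal. -/
theorem involution_unique {u a b : G} (hu : orderOf u = 5) (ha : a * a = 1) (ha1 : a ≠ 1)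
    (hb : b * b = 1) (hb1 : b ≠ 1) (hau : a * u = u * a) (hbu : b * u = u * b)
    (hab : a * b = b * a) : a = b := by
  obtain ⟨g, hg⟩ := isConj_iff.1 (d.isConj_t h2 (orderOf_eq_prime (by rw [pow_two, ha]) ha1)).symm
  have cj : ∀ y z : G, y * z = z * y →
      g * y * g⁻¹ * (g * z * g⁻¹) = g * z * g⁻¹ * (g * y * g⁻¹) := fun y z h => by
    rw [show g * y * g⁻¹ * (g * z * g⁻¹) = g * (y * z) * g⁻¹ by group, h]; group
  obtain ⟨p, hp⟩ := d.exists_phi (x := g * u * g⁻¹) (by rw [← hg]; exact cj _ _ hau.symm)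
  obtain ⟨q, hq⟩ := d.exists_phi (x := g * b * g⁻¹) (by rw [← hg]; exact cj _ _ hab.symm)
  have hu5 : u ^ 5 = 1 := orderOf_dvd_iff_pow_eq_one.1 (hu.dvd)
  have hp5 : p ^ 5 = 1 := d.inj (by
    rw [map_pow, hp, conj_pow, hu5, map_one]; group)
  have hp1 : p ≠ 1 := fun h => by
    rw [h, map_one] at hp
    have : u = 1 := by rw [show u = g⁻¹ * (g * u * g⁻¹) * g by group, ← hp]; group
    rw [this, orderOf_one] at hu
    norm_num at hu
  rcases five_key p ⟨hp5, hp1⟩ q ⟨(d.inj (by
      rw [map_mul, hq, show g * b * g⁻¹ * (g * b * g⁻¹) = g * (b * b) * g⁻¹ by group, hb, map_one]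
      group))
    , (d.inj (by rw [map_mul, map_mul, hp, hq]; exact cj _ _ hbu.symm))⟩ with h | h
  · rw [h, map_one] at hq
    exact absurd (by rw [show b = g⁻¹ * (g * b * g⁻¹) * g by group, ← hq]; group) hb1
  · rw [h, d.phi_kz, ← hg] at hq
    exact mul_left_cancel (mul_right_cancel hq)

/-- Two Sylow `7`-subgroups centralising the same element of order `5` coincide. -/
theorem sylow_unique [Fact (Nat.Prime 7)] {u : G} (hu : orderOf u = 5) (P P' : Sylow 7 G)
    (hP : (P : Subgroup G) ≤ centralizer ({u} : Set G))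
    (hP' : (P' : Subgroup G) ≤ centralizer ({u} : Set G)) : P = P' := by
  set Cu := centralizer ({u} : Set G) with hCu
  haveI : Fact (Nat.Prime 2) := ⟨Nat.prime_two⟩
  have h4 : ¬ 4 ∣ Nat.card Cu := by
    intro h
    obtain ⟨V, hV⟩ := Sylow.exists_subgroup_card_pow_prime 2 (n := 2) h
    have hsq : ∀ v : V, ((v : Cu) : G) * ((v : Cu) : G) = 1 := fun v =>
      d.sq_eq_one_of_two_pow h2 hN (k := 2) (by
        have : (v : V) ^ 2 ^ 2 = 1 := hV ▸ pow_card_eq_one'
        exact_mod_cast congrArg (fun w : V => ((w : Cu) : G)) this)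
    haveI := Fintype.ofFinite V
    obtain ⟨a, b, c, hab, hac, hbc⟩ := (Fintype.two_lt_card_iff (α := V)).1 (by
      rw [← Nat.card_eq_fintype_card, hV]; norm_num)
    have key : ∀ a b : V, a ≠ 1 → b ≠ 1 → a = b := by
      intro a b ha hb
      have hne : ∀ a : V, a ≠ 1 → ((a : Cu) : G) ≠ 1 := fun a ha h =>
        ha (Subtype.ext (Subtype.ext h))
      refine Subtype.ext (Subtype.ext (d.involution_unique h2 hN hu (hsq a) (hne a ha) (hsq b)
        (hne b hb) (mem_centralizer_singleton_iff.1 (a : Cu).2)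
        (mem_centralizer_singleton_iff.1 (b : Cu).2) ?_))
      have h1 := hsq (a * b)
      simp only [Subgroup.coe_mul] at h1
      have h3 : (((a : Cu) : G) * b)⁻¹ = ((a : Cu) : G) * b := inv_eq_of_mul_eq_one_right h1
      rw [mul_inv_rev, inv_eq_of_mul_eq_one_right (hsq a), inv_eq_of_mul_eq_one_right (hsq b)] at h3
      exact h3.symm
    by_cases ha : a = 1
    · exact hbc (key b c (fun h => hab (ha.trans h.symm)) fun h => hac (ha.trans h.symm))
    by_cases hb : b = 1
    · exact hac (key a c ha fun h => hbc (hb.trans h.symm))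
    exact hab (key a b ha hb)
  -- the subgroup of odd order
  obtain ⟨O, hOn, hOodd, hOidx⟩ : ∃ O : Subgroup Cu, O.Normal ∧ Odd (Nat.card O) ∧
      (O.index = 1 ∨ O.index = 2) := by
    rcases Nat.even_or_odd (Nat.card Cu) with he | ho
    · obtain ⟨T⟩ : Nonempty (Sylow 2 Cu) := inferInstance
      have hT : Nat.card (T : Subgroup Cu) = 2 := by
        obtain ⟨k, hk⟩ := T.2.exists_card_eq
        have h1 : 2 ∣ Nat.card (T : Subgroup Cu) := T.dvd_card_of_dvd_card he.two_dvd
        rcases k with _ | _ | k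
        · rw [hk] at h1; norm_num at h1
        · simpa using hk
        · exact absurd ((pow_dvd_pow 2 (show 2 ≤ k + 2 by omega)).trans
            (hk ▸ (T : Subgroup Cu).card_subgroup_dvd_card)) h4
      have hmin : (Nat.card Cu).minFac = 2 := (Nat.minFac_eq_two_iff _).2 he.two_dvd
      haveI : IsCyclic (T : Subgroup Cu) := isCyclic_of_prime_card hT
      have hle := IsCyclic.normalizer_le_centralizer (P := T) hmin inferInstance
      refine ⟨(MonoidHom.transferSylow T hle).ker, inferInstance, ?_, Or.inr ?_⟩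
      · refine Nat.not_even_iff_odd.1 fun h => ?_
        exact MonoidHom.not_dvd_card_ker_transferSylow T hle h.two_dvd
      · have h := MonoidHom.ker_transferSylow_isComplement' T hle
        rw [h.symm.index_eq_card, hT]
    · exact ⟨⊤, inferInstance, by rwa [Subgroup.card_top], Or.inl Subgroup.index_top⟩
  haveI := hOn
  have hmem : ∀ {x : Cu}, x ^ 7 = 1 → x ∈ O := by
    intro x hx
    have h1 : x ^ O.index ∈ O := O.pow_index_mem x
    rcases hOidx with h | h <;> rw [h] at h1
    · simpa using h1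
    · have : x = (x ^ 2) ^ 4 := by rw [← pow_mul, show 2 * 4 = 7 + 1 by rfl, pow_succ, hx, one_mul]
      rw [this]; exact O.pow_mem h1 4
  have hO : Nat.card O ∣ 23625 := by
    have h1 : Nat.card O ∣ 8 * 23625 := by
      have := (O.card_subgroup_dvd_card).trans Cu.card_subgroup_dvd_card
      rw [hN] at this
      exact this
    refine (Nat.Coprime.dvd_mul_left ?_).1 h1
    show Nat.Coprime (Nat.card O) (2 ^ 3)
    exact (Nat.coprime_pow_right_iff (by norm_num) _ _).2 hOodd.coprime_two_right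
  have h7 : ∀ R : Sylow 7 G, ∀ x ∈ (R : Subgroup G), x ^ 7 = 1 := by
    intro R x hx
    have hR : Nat.card (R : Subgroup G) = 7 := by
      simpa using SmallGroups.card_sylow_eq (p := 7) (a := 1) (m := 27000) (by rw [hN]; norm_num)
        (by norm_num) R
    have := pow_card_eq_one' (G := (R : Subgroup G)) (x := ⟨x, hx⟩)
    rw [hR] at this
    exact congrArg Subtype.val this
  let f : ↥O →* G := Cu.subtype.comp O.subtype
  have hf : Function.Injective f := Cu.subtype_injective.comp O.subtype_injective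
  have hle : ∀ R : Sylow 7 G, (R : Subgroup G) ≤ Cu → (R : Subgroup G) ≤ f.range := fun R hR x hx =>
    ⟨⟨⟨x, hR hx⟩, hmem (Subtype.ext (h7 R x hx))⟩, rfl⟩
  let R1 : Sylow 7 O := P.comapOfInjective f hf (hle P hP)
  let R2 : Sylow 7 O := P'.comapOfInjective f hf (hle P' hP')
  have hn := sylow_seven_normal _ O rfl hO R1
  haveI := Sylow.unique_of_normal R1 hn
  have h12 : R1 = R2 := Subsingleton.elim _ _
  apply Sylow.ext
  have h13 := congrArg (fun R : Sylow 7 O => (R : Subgroup O).map f) h12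
  simpa [R1, R2, Subgroup.map_comap_eq, inf_of_le_right (hle P hP), inf_of_le_right (hle P' hP')]
    using h13

/-- A simple group with this centraliser does not have order `189000`. -/
theorem false_of_card : False := by
  haveI : Fact (Nat.Prime 7) := ⟨by norm_num⟩
  haveI : Fact (Nat.Prime 5) := ⟨by norm_num⟩
  haveI : Fact (Nat.Prime 2) := ⟨Nat.prime_two⟩
  have hG : ¬ IsMulCommutative G := by
    intro h
    have htop : centralizer ({d.t} : Set G) = ⊤ := eq_top_iff.2 fun x _ =>
      mem_centralizer_singleton_iff.2 (h.is_comm.comm x d.t)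
    have := d.card_centralizer
    rw [htop, Subgroup.card_top, hN] at this
    norm_num at this
  obtain ⟨P⟩ : Nonempty (Sylow 7 G) := inferInstance
  have hn7 : Nat.card G = 7 * 27000 := by rw [hN]
  obtain ⟨c, e, hC, hNP, he1, he, hprod⟩ :=
    SmallGroups.sylow_prime_data hG hn7 (by norm_num) P
  have he' : e ∈ ([2, 3, 6] : List ℕ) := by
    have : e ≤ 6 := Nat.le_of_dvd (by norm_num) he
    interval_cases e <;> simp at he ⊢
  have hP7 : Nat.card (P : Subgroup G) = 7 := by
    simpa using SmallGroups.card_sylow_eq (p := 7) (a := 1) (m := 27000) (by rw [hN]; norm_num)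
      (by norm_num) P
  have hcodd : c % 2 = 1 := by
    by_contra hc
    have h2c : 2 ∣ Nat.card (centralizer ((P : Subgroup G) : Set G)) :=
      hC ▸ dvd_mul_of_dvd_right (Nat.dvd_of_mod_eq_zero (by omega)) 7
    obtain ⟨⟨x, hx⟩, hxo⟩ := exists_prime_orderOf_dvd_card' 2 h2c
    rw [Subgroup.orderOf_mk] at hxo
    obtain ⟨g, hg⟩ := isConj_iff.1 (d.isConj_t h2 hxo).symm
    have hle : (P : Subgroup G).map (MulAut.conj g).toMonoidHom ≤ centralizer ({d.t} : Set G) := by
      rintro _ ⟨y, hy, rfl⟩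
      refine mem_centralizer_singleton_iff.2 ?_
      rw [← hg]
      show g * y * g⁻¹ * (g * x * g⁻¹) = g * x * g⁻¹ * (g * y * g⁻¹)
      rw [show g * y * g⁻¹ * (g * x * g⁻¹) = g * (y * x) * g⁻¹ by group,
        mem_centralizer_iff.1 hx y hy]
      group
    have h := Subgroup.card_dvd_of_le hle
    rw [Subgroup.card_map_of_injective (MulAut.conj g).injective, hP7, d.card_centralizer] at h
    norm_num at h
  have hdiv : c * e ∣ 27000 := ⟨Nat.card (Sylow 7 G), by rw [← hprod]; ring⟩
  have hc0 : 0 < c * e := Nat.pos_of_ne_zero fun h => by rw [h] at hdiv; norm_num at hdiv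
  have hc5 : 5 ∣ c := by
    refine Nat.dvd_of_mod_eq_zero (five_dvd_numbers c (Nat.mem_divisors.2
      ⟨(dvd_mul_right c e).trans hdiv, by norm_num⟩) e he' (Nat.mod_eq_zero_of_dvd hdiv) ?_ hcodd)
    rw [← hprod, Nat.mul_div_cancel _ hc0]
    exact card_sylow_modEq_one 7 G
  -- elements of order five normalising a Sylow 7-subgroup centralise it
  have key : ∀ R : Sylow 7 G, ∀ x ∈ normalizer ((R : Subgroup G) : Set G), ∀ k : ℕ, x ^ 5 ^ k = 1 →
      x ∈ centralizer ((R : Subgroup G) : Set G) := by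
    intro R x hx k hxk
    have hd := SmallGroups.relIndex_centralizer_dvd_pred (R : Subgroup G) (p := 7) (by
      simpa using SmallGroups.card_sylow_eq (p := 7) (a := 1) (m := 27000) (by rw [hN]; norm_num)
        (by norm_num) R)
    set Nr := normalizer ((R : Subgroup G) : Set G)
    set Cr := centralizer ((R : Subgroup G) : Set G)
    haveI : (Cr.subgroupOf Nr).Normal := by
      rw [show Cr.subgroupOf Nr = _ from ((R : Subgroup G).normalizerMonoidHom_ker).symm]
      infer_instance
    have h1 : (⟨x, hx⟩ : Nr) ^ (Cr.relIndex Nr) ∈ Cr.subgroupOf Nr := (Cr.subgroupOf Nr).pow_index_mem _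
    have hcop : Nat.Coprime (Cr.relIndex Nr) (5 ^ k) :=
      ((show Nat.Coprime 6 5 by norm_num).coprime_dvd_left hd).pow_right k
    have h5 : (⟨x, hx⟩ : Nr) ^ (5 ^ k) ∈ Cr.subgroupOf Nr := by
      rw [show (⟨x, hx⟩ : Nr) ^ (5 ^ k) = 1 from Subtype.ext (by simpa using hxk)]
      exact one_mem _
    obtain ⟨m, hm⟩ := exists_pow_eq_self_of_coprime (x := (⟨x, hx⟩ : Nr))
      (hcop.coprime_dvd_right (orderOf_dvd_of_pow_eq_one (Subtype.ext (by simpa using hxk))))
    have hgcd := (Cr.subgroupOf Nr).pow_mem h1 m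
    rw [hm] at hgcd
    exact hgcd
  -- the full Sylow 5-subgroup centralises `P`
  have step : ∀ k, 1 ≤ k → k < 3 → ∀ W : Subgroup G, Nat.card W = 5 ^ k →
      W ≤ centralizer ((P : Subgroup G) : Set G) →
      ∃ T : Subgroup G, Nat.card T = 5 ^ (k + 1) ∧ T ≤ centralizer ((P : Subgroup G) : Set G) := by
    intro k hk hk3 W hW hWP
    have hdvd : 5 ^ (k + 1) ∣ Nat.card G := by
      rw [hN]; interval_cases k <;> norm_num
    obtain ⟨T, hT, hWT⟩ := Sylow.exists_subgroup_card_pow_succ hdvd hW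
    have hTp : IsPGroup 5 T := IsPGroup.of_card hT
    haveI hWn : (W.subgroupOf T).Normal := by
      refine Subgroup.normal_of_index_eq_minFac_card ?_
      have h1 := Subgroup.card_mul_index (W.subgroupOf T)
      rw [Nat.card_congr (Subgroup.subgroupOfEquivOfLe hWT).toEquiv, hW, hT, pow_succ] at h1
      rw [hT, Nat.pow_minFac (by omega), Nat.Prime.minFac_eq (by norm_num)]
      exact Nat.eq_of_mul_eq_mul_left (by positivity) h1
    have hne : W.subgroupOf T ≠ ⊥ := fun h => by
      have := Nat.card_congr (Subgroup.subgroupOfEquivOfLe hWT).toEquiv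
      rw [h, Subgroup.card_bot, hW] at this
      have : 1 < 5 ^ k := Nat.one_lt_pow (by omega) (by norm_num)
      omega
    obtain ⟨w, hwW, hwZ, hw1⟩ : ∃ w : T, w ∈ W.subgroupOf T ∧ w ∈ center T ∧ w ≠ 1 := by
      haveI : Group.IsNilpotent T := hTp.isNilpotent
      have hzb : W.subgroupOf T ⊓ center T ≠ ⊥ := PSolvable.inf_center_ne_bot hne
      obtain ⟨w, hw1⟩ := (Subgroup.ne_bot_iff_exists_ne_one.1 hzb)
      exact ⟨w, w.2.1, w.2.2, fun h => hw1 (Subtype.ext h)⟩
    obtain ⟨j, hj⟩ := hTp w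
    obtain ⟨i, -, hi⟩ := (Nat.dvd_prime_pow (by norm_num)).1 (orderOf_dvd_of_pow_eq_one hj)
    have hi0 : i ≠ 0 := fun h => hw1 (orderOf_eq_one_iff.1 (by rw [hi, h, pow_zero]))
    obtain ⟨u, hu, huW, huT⟩ : ∃ u : G, orderOf u = 5 ∧ u ∈ W ∧ ∀ x ∈ T, x * u = u * x := by
      refine ⟨((w ^ 5 ^ (i - 1) : T) : G), ?_, ?_, fun x hx => ?_⟩
      · rw [Subgroup.orderOf_coe, orderOf_pow' _ (by positivity), hi,
          Nat.gcd_eq_right (pow_dvd_pow 5 (by omega)), Nat.pow_div (by omega) (by norm_num),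
          show i - (i - 1) = 1 by omega, pow_one]
      · exact Subgroup.mem_subgroupOf.1 ((W.subgroupOf T).pow_mem hwW _)
      · exact congrArg Subtype.val (Subgroup.mem_center_iff.1 ((center T).pow_mem hwZ _) ⟨x, hx⟩)
    have hPu : (P : Subgroup G) ≤ centralizer ({u} : Set G) := fun y hy =>
      mem_centralizer_singleton_iff.2 (mem_centralizer_iff.1 (hWP huW) y hy)
    refine ⟨T, hT, fun x hx => ?_⟩
    have hxu : x ∈ centralizer ({u} : Set G) := mem_centralizer_singleton_iff.2 (huT x hx)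
    have hxP : x • P = P := by
      refine (d.sylow_unique h2 hN hu P (x • P) hPu ?_).symm
      rw [Sylow.coe_subgroup_smul]
      rintro _ ⟨y, hy, rfl⟩
      exact mul_mem (mul_mem hxu (hPu hy)) (inv_mem hxu)
    obtain ⟨l, hl⟩ := hTp ⟨x, hx⟩
    exact key P x (Sylow.smul_eq_iff_mem_normalizer.1 hxP) l (congrArg Subtype.val hl)
  obtain ⟨W, hW⟩ := Sylow.exists_subgroup_card_pow_prime 5 (n := 1)
    (show 5 ^ 1 ∣ Nat.card (centralizer ((P : Subgroup G) : Set G)) by
      rw [pow_one, hC]; exact dvd_mul_of_dvd_right hc5 7)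
  obtain ⟨T, hT, hTP⟩ := step 1 le_rfl (by norm_num)
    (W.map (centralizer ((P : Subgroup G) : Set G)).subtype)
    (by rw [Subgroup.card_map_of_injective (Subgroup.subtype_injective _), hW])
    (Subgroup.map_subtype_le _)
  obtain ⟨Q, hQ, hQP⟩ := step 2 (by norm_num) (by norm_num) T hT hTP
  have h125 : 125 ∣ c := by
    have h := Subgroup.card_dvd_of_le hQP
    rw [hQ, hC] at h
    exact (show Nat.Coprime 125 7 by norm_num).dvd_of_dvd_mul_left h
  have hn108 : Nat.card (Sylow 7 G) < 125 := by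
    by_contra hcon
    have h250 : 250 ≤ c * e := by
      have := Nat.le_of_dvd (Nat.pos_of_ne_zero fun h => by simp [h] at hc0) h125
      calc 250 = 125 * 2 := rfl
        _ ≤ c * e := Nat.mul_le_mul this he1
    have : 125 * 250 ≤ 27000 := hprod ▸ Nat.mul_le_mul (not_lt.1 hcon) h250
    norm_num at this
  -- another Sylow subgroup has a non-trivial stabiliser in `Q`
  haveI : Nontrivial (Sylow 7 G) := Finite.one_lt_card_iff_nontrivial.1
    (SmallGroups.one_lt_card_sylow hG (by rw [hn7]; exact dvd_mul_right 7 _))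
  obtain ⟨P', hPP'⟩ := exists_ne P
  obtain ⟨x, y, hxy, hxyP⟩ : ∃ x y : Q, x ≠ y ∧ (x : G) • P' = (y : G) • P' := by
    by_contra hcon
    push Not at hcon
    have hinj : Function.Injective (fun x : Q => (x : G) • P') := fun x y h => by
      by_contra hne; exact hcon x y hne h
    have := Nat.card_le_card_of_injective _ hinj
    rw [hQ] at this
    omega
  have hz : ((x⁻¹ * y : Q) : G) • P' = P' := by
    rw [Subgroup.coe_mul, Subgroup.coe_inv, mul_smul, ← hxyP, inv_smul_smul]
  have hQp : IsPGroup 5 Q := IsPGroup.of_card hQ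
  obtain ⟨j, hj⟩ := hQp (x⁻¹ * y)
  obtain ⟨i, -, hi⟩ := (Nat.dvd_prime_pow (by norm_num)).1 (orderOf_dvd_of_pow_eq_one hj)
  have hi0 : i ≠ 0 := fun h => hxy (by
    have := orderOf_eq_one_iff.1 (show orderOf (x⁻¹ * y) = 1 by rw [hi, h, pow_zero])
    exact inv_mul_eq_one.1 this)
  set u : G := ((x⁻¹ * y : Q) : G) ^ 5 ^ (i - 1) with hudef
  have hu : orderOf u = 5 := by
    rw [hudef, orderOf_pow' _ (by positivity), Subgroup.orderOf_coe, hi,
      Nat.gcd_eq_right (pow_dvd_pow 5 (by omega)), Nat.pow_div (by omega) (by norm_num),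
      show i - (i - 1) = 1 by omega, pow_one]
  have huQ : u ∈ Q := Q.pow_mem (x⁻¹ * y : Q).2 _
  have huN : u ∈ normalizer ((P' : Subgroup G) : Set G) :=
    Subgroup.pow_mem _ (Sylow.smul_eq_iff_mem_normalizer.1 hz) _
  have huC := key P' u huN 1 (by rw [pow_one, ← hu, pow_orderOf_eq_one])
  exact hPP' (d.sylow_unique h2 hN hu P' P
    (fun z hz => mem_centralizer_singleton_iff.2 (mem_centralizer_iff.1 huC z hz))
    (fun z hz => mem_centralizer_singleton_iff.2 (mem_centralizer_iff.1 (hQP huQ) z hz)))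

end Model

end CfsgLib.JankoOrder
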