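import Cfsg.Agent.Lib.JankoOrder.Cases
import Cfsg.Agent.Lib.JankoOrder.Local

/-!
Janko's theorem: a simple group with a `2`-central involution centraliser `2 × A₅` has order
`175560`.
-/

set_option autoImplicit false

open Cfsg

namespace CfsgLib.JankoOrder

universe u

theorem isJ1 {G : Type u} [Group G] [Finite G] [IsSimpleGroup G] (t : G)
    (ht : IsTwoCentralInvolution t)
    (e : Subgroup.centralizer ({t} : Set G) ≃* Multiplicative (ZMod 2) × alternatingGroup (Fin 5)) :
    Cfsg.IsJ1 G := by
  haveI := Fintype.ofFinite G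
  let d : Model G := Model.ofEquiv t ht.1 e
  obtain ⟨ι, _, ⟨num⟩⟩ := d.exists_numeric ht
  refine ⟨inferInstance, (num.order_cases d.dvd_card (d.not_sixteen_dvd ht)).resolve_right ?_⟩
  exact fun h => d.false_of_card ht h

end CfsgLib.JankoOrder
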